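import Cfsg.Agent.H22N.Lin
import Cfsg.Agent.H62.ChiefRep
import Cfsg.Agent.H91.GenCent
import Cfsg.Agent.FT.Base
import Cfsg.Agent.SigF.Trans

set_option autoImplicit false
set_option linter.style.haveILetI false

/-!
An odd order group `X` with commuting involutory operators `a`, `b` such that `C_X(<a,b>) = 1` and `C_X(s)` is
abelian for `s = a, b, ab`: then `X'` lies in the Fitting subgroup (helper22, for helper5's S3322).
-/

namespace Cfsg.Agent.H22N

open scoped commutatorElement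

universe u v

section four
variable {G : Type u} [Group G]

/-- the subgroup `{1, a, b, ab}` -/
def four {a b : G} (haa : a * a = 1) (hbb : b * b = 1) (hab : a * b = b * a) : Subgroup G where
  carrier := {x | x = 1 ∨ x = a ∨ x = b ∨ x = a * b}
  one_mem' := Or.inl rfl
  mul_mem' := by
    have e1 : a * (a * b) = b := by rw [← mul_assoc, haa, one_mul]
    have e2 : b * (a * b) = a := by rw [hab, ← mul_assoc, hbb, one_mul]
    have e3 : a * b * a = b := by rw [hab, mul_assoc, haa, mul_one]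
    have e4 : a * b * b = a := by rw [mul_assoc, hbb, mul_one]
    have e5 : a * b * (a * b) = 1 := by rw [← mul_assoc, e3, hbb]
    rintro x y (rfl | rfl | rfl | rfl) (rfl | rfl | rfl | rfl)
    · exact Or.inl (one_mul _)
    · exact Or.inr (Or.inl (one_mul _))
    · exact Or.inr (Or.inr (Or.inl (one_mul _)))
    · exact Or.inr (Or.inr (Or.inr (one_mul _)))
    · exact Or.inr (Or.inl (mul_one _))
    · exact Or.inl haa
    · exact Or.inr (Or.inr (Or.inr rfl))
    · exact Or.inr (Or.inr (Or.inl e1))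
    · exact Or.inr (Or.inr (Or.inl (mul_one _)))
    · exact Or.inr (Or.inr (Or.inr hab.symm))
    · exact Or.inl hbb
    · exact Or.inr (Or.inl e2)
    · exact Or.inr (Or.inr (Or.inr (mul_one _)))
    · exact Or.inr (Or.inr (Or.inl e3))
    · exact Or.inr (Or.inl e4)
    · exact Or.inl e5
  inv_mem' := by
    have e5 : a * b * (a * b) = 1 := by
      calc a * b * (a * b) = a * (b * a) * b := by group
        _ = (a * a) * (b * b) := by rw [← hab]; group
        _ = 1 := by rw [haa, hbb, one_mul]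
    rintro x (rfl | rfl | rfl | rfl)
    · exact Or.inl inv_one
    · exact Or.inr (Or.inl (inv_eq_of_mul_eq_one_left haa))
    · exact Or.inr (Or.inr (Or.inl (inv_eq_of_mul_eq_one_left hbb)))
    · exact Or.inr (Or.inr (Or.inr (inv_eq_of_mul_eq_one_left e5)))

variable {a b : G} (haa : a * a = 1) (hbb : b * b = 1) (hab : a * b = b * a)

theorem mem_four {x : G} : x ∈ four haa hbb hab ↔ (x = 1 ∨ x = a ∨ x = b ∨ x = a * b) := Iff.rfl

theorem four_sq {x : G} (hx : x ∈ four haa hbb hab) : x * x = 1 := by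
  rcases hx with rfl | rfl | rfl | rfl
  · exact one_mul 1
  · exact haa
  · exact hbb
  · calc a * b * (a * b) = a * (b * a) * b := by group
      _ = (a * a) * (b * b) := by rw [← hab]; group
      _ = 1 := by rw [haa, hbb, one_mul]

theorem four_comm : IsMulCommutative (four haa hbb hab) := by
  have hab' : Commute a b := hab
  refine ⟨⟨?_⟩⟩
  rintro ⟨x, hx⟩ ⟨y, hy⟩
  apply Subtype.ext
  change Commute x y
  rcases hx with rfl | rfl | rfl | rfl
  · exact Commute.one_left _
  · rcases hy with rfl | rfl | rfl | rfl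
    · exact Commute.one_right _
    · exact Commute.refl _
    · exact hab'
    · exact (Commute.refl _).mul_right hab'
  · rcases hy with rfl | rfl | rfl | rfl
    · exact Commute.one_right _
    · exact hab'.symm
    · exact Commute.refl _
    · exact hab'.symm.mul_right (Commute.refl _)
  · rcases hy with rfl | rfl | rfl | rfl
    · exact Commute.one_right _
    · exact ((Commute.refl _).mul_right hab').symm
    · exact (hab'.symm.mul_right (Commute.refl _)).symm
    · exact Commute.refl _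

variable [Finite G]

theorem four_coprime {n : ℕ} (hn : Odd n) : (Nat.card (four haa hbb hab)).Coprime n := by
  haveI : Fact (Nat.Prime 2) := ⟨Nat.prime_two⟩
  have hp : IsPGroup 2 (four haa hbb hab) := by
    rw [isPGroup_iff_pow_pow_eq_one]
    intro x
    refine ⟨1, ?_⟩
    apply Subtype.ext
    change (x : G) ^ (2 ^ 1) = 1
    rw [pow_one, pow_two]
    exact four_sq haa hbb hab x.2
  obtain ⟨m, hm⟩ := IsPGroup.iff_card.1 hp
  rw [hm]
  exact Nat.Coprime.pow_left _ (Nat.coprime_two_left.2 hn)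

omit [Finite G] in
theorem four_not_cyclic (ha : a ≠ 1) (hb : b ≠ 1) (hne : a ≠ b) : ¬ IsCyclic (four haa hbb hab) := by
  intro hc
  obtain ⟨g, hg⟩ := hc.exists_generator
  have hgg : (g : G) * g = 1 := four_sq haa hbb hab g.2
  have hpow : ∀ x ∈ four haa hbb hab, x = 1 ∨ x = (g : G) := by
    intro x hx
    obtain ⟨k, hk⟩ := hg ⟨x, hx⟩
    have hk' : (g : G) ^ k = x := by
      have := congrArg (fun z : four haa hbb hab => (z : G)) hk
      simpa using this
    rcases Int.even_or_odd' k with ⟨j, hj | hj⟩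
    · left
      rw [← hk', hj, zpow_mul, zpow_two, hgg, one_zpow]
    · right
      rw [← hk', hj, zpow_add, zpow_mul, zpow_two, hgg, one_zpow, zpow_one, one_mul]
  have h1 := hpow a (Or.inr (Or.inl rfl))
  have h2 := hpow b (Or.inr (Or.inr (Or.inl rfl)))
  rcases h1 with h1 | h1
  · exact ha h1
  · rcases h2 with h2 | h2
    · exact hb h2
    · exact hne (h1.trans h2.symm)

include haa hbb hab in
/-- generation of an odd order group by the centralizers of the involutions of a four-group -/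
theorem gen {K : Subgroup G} (hK : Odd (Nat.card K)) (ha : a ≠ 1) (hb : b ≠ 1) (hne : a ≠ b)
    (hKa : ∀ x ∈ K, a * x * a⁻¹ ∈ K) (hKb : ∀ x ∈ K, b * x * b⁻¹ ∈ K) :
    K ≤ Subgroup.closure {x | x ∈ K ∧ (a * x = x * a ∨ b * x = x * b ∨ a * b * x = x * (a * b))} := by
  haveI := four_comm haa hbb hab
  have hKs : ∀ s ∈ four haa hbb hab, ∀ x ∈ K, s * x * s⁻¹ ∈ K := by
    rintro s (rfl | rfl | rfl | rfl) x hx
    · simpa using hx
    · exact hKa x hx
    · exact hKb x hx
    · have := hKa _ (hKb x hx)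
      have e : a * (b * x * b⁻¹) * a⁻¹ = a * b * x * (a * b)⁻¹ := by group
      rwa [e] at this
  have hnorm : four haa hbb hab ≤ Subgroup.normalizer (K : Set G) := by
    intro s hs
    rw [Subgroup.mem_normalizer_iff]
    intro x
    refine ⟨hKs s hs x, fun h => ?_⟩
    have := hKs s⁻¹ (inv_mem hs) _ h
    have e : s⁻¹ * (s * x * s⁻¹) * s⁻¹⁻¹ = x := by group
    rwa [e] at this
  have h1 := H91.genCent_eq (four haa hbb hab) K (four_not_cyclic haa hbb hab ha hb hne) hnorm
    (four_coprime haa hbb hab hK)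
  rw [← h1]
  refine iSup₂_le ?_
  rintro s ⟨hs, hs1⟩
  rintro x ⟨hxK, hxs⟩
  have hxs' : s * x = x * s := (Subgroup.mem_centralizer_iff.1 hxs) s (Set.mem_singleton s)
  apply Subgroup.subset_closure
  refine ⟨by rw [h1]; exact hxK, ?_⟩
  rcases hs with rfl | rfl | rfl | rfl
  · exact absurd rfl hs1
  · exact Or.inl hxs'
  · exact Or.inr (Or.inl hxs')
  · exact Or.inr (Or.inr hxs')

end four

/-- chief modules, with lifting of fixed vectors -/
theorem exists_chief_rep' {X : Type u} [Group X] [Finite X] (hX : Group.IsSolvable X) (N : Subgroup X) [N.Normal]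
    {g : X} (hg : g ∈ N) (hgF : g ∉ (Cfsg.fittingSubgroup ↥N).map N.subtype) :
    ∃ (ℓ : ℕ) (_ : Fact ℓ.Prime) (V : Type u) (_ : AddCommGroup V) (_ : Module (ZMod ℓ) V) (_ : Finite V)
      (ρ : Representation (ZMod ℓ) X V), ρ g ≠ 1 ∧
      (∀ W : Submodule (ZMod ℓ) V, (∀ x, ∀ w ∈ W, ρ x w ∈ W) → W = ⊥ ∨ W = ⊤) ∧ ℓ ∣ Nat.card N ∧
      ∀ H : Subgroup X, (Nat.card H).Coprime (Nat.card N) → ∀ v : V, (∀ y ∈ H, ρ y v = v) →
        ∀ n : X, (∀ h ∈ N, h ∈ Subgroup.centralizer (H : Set X) → n * h = h * n) → ρ n v = v := by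
  classical
  obtain ⟨-, h2⟩ := Cfsg.Agent.S3766.result hX N g
  rw [h2] at hgF
  push Not at hgF
  obtain ⟨U, V, ⟨hU, hV, hVU, hmin⟩, hUF, w, hw, hwg⟩ := hgF hg
  obtain ⟨ℓ, hℓ, hpow, hcomm, hdvd⟩ := H62.ChiefRep.chief_elementary hX hU hV hVU hmin
  haveI : Fact ℓ.Prime := ⟨hℓ⟩
  have hn : ∀ (K : Subgroup X), K.Normal → ∀ L : Subgroup X, L ≤ Subgroup.normalizer (K : Set X) := by
    intro K hK L
    haveI := hK
    rw [Subgroup.normalizer_eq_top]
    exact le_top
  have hUN : U ≤ N := hUF.trans (Subgroup.map_subtype_le _)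
  obtain ⟨A, iA, iM, ⟨S⟩⟩ := BG3.exists_secMod (ℓ := ℓ) (M := U) (M1 := V) (Y := ⊤) (hn V hV U) (hn U hU ⊤)
    (hn V hV ⊤) hpow hcomm
  haveI : Finite A := S.finite
  let ρ : Representation (ZMod ℓ) X A := S.ρ.comp (Subgroup.topEquiv.symm : X ≃* (⊤ : Subgroup X)).toMonoidHom
  have hρ : ∀ x : X, ρ x = S.ρ ⟨x, Subgroup.mem_top x⟩ := fun x => rfl
  refine ⟨ℓ, inferInstance, A, iA, iM, inferInstance, ρ, ?_, ?_, hdvd.trans (Subgroup.card_dvd_of_le hUN), ?_⟩
  · intro h1
    have h3 := (S.rho_eq_iff ⟨g, Subgroup.mem_top g⟩).1 (by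
      intro v
      rw [← hρ, h1]; rfl) w hw
    apply hwg
    change g * w * g⁻¹ * w⁻¹ ∈ V at h3
    have h4 := V.inv_mem h3
    have h5 : (g * w * g⁻¹ * w⁻¹)⁻¹ = w * g * w⁻¹ * g⁻¹ := by group
    rwa [h5] at h4
  · intro W hW
    -- the preimage
    let M : Subgroup X :=
      { carrier := {x | ∃ hx : x ∈ U, (S.π ⟨x, hx⟩).toAdd ∈ W}
        one_mem' := ⟨U.one_mem, by
          have : S.π ⟨1, U.one_mem⟩ = 1 := map_one S.π
          rw [this]; exact W.zero_mem⟩
        mul_mem' := by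
          rintro a b ⟨ha, ha'⟩ ⟨hb, hb'⟩
          refine ⟨U.mul_mem ha hb, ?_⟩
          have : S.π ⟨a * b, U.mul_mem ha hb⟩ = S.π ⟨a, ha⟩ * S.π ⟨b, hb⟩ := map_mul S.π ⟨a, ha⟩ ⟨b, hb⟩
          rw [this]; exact W.add_mem ha' hb'
        inv_mem' := by
          rintro a ⟨ha, ha'⟩
          refine ⟨U.inv_mem ha, ?_⟩
          have : S.π ⟨a⁻¹, U.inv_mem ha⟩ = (S.π ⟨a, ha⟩)⁻¹ := map_inv S.π ⟨a, ha⟩
          rw [this]; exact W.neg_mem ha' }
    have hMn : M.Normal := by
      constructor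
      rintro a ⟨ha, ha'⟩ y
      refine ⟨hU.conj_mem a ha y, ?_⟩
      have h3 := S.equiv ⟨y, Subgroup.mem_top y⟩ ⟨a, ha⟩
      have h4 : BG3.cjHom (hn U hU ⊤) ⟨y, Subgroup.mem_top y⟩ ⟨a, ha⟩ = ⟨y * a * y⁻¹, hU.conj_mem a ha y⟩ := rfl
      rw [h4] at h3
      rw [h3]
      exact hW y _ ha'
    have hVM : V ≤ M := by
      intro a ha
      refine ⟨hVU.le ha, ?_⟩
      have h3 : S.π ⟨a, hVU.le ha⟩ = 1 := (S.ker _).2 ha
      rw [h3]; exact W.zero_mem
    have hMU : M ≤ U := fun a ha => ha.1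
    rcases hmin M hMn hVM hMU with h3 | h3
    · left
      rw [eq_bot_iff]
      intro v hv
      obtain ⟨a, rfl⟩ := S.exists_rep v
      have h4 : (a : X) ∈ M := ⟨a.2, hv⟩
      rw [h3] at h4
      rw [Submodule.mem_bot, (S.ker a).2 h4]; rfl
    · right
      rw [eq_top_iff]
      intro v _
      obtain ⟨a, rfl⟩ := S.exists_rep v
      have h4 : (a : X) ∈ M := by rw [h3]; exact a.2
      exact h4.2
  · intro H hH v hfix n hnc
    have hUsol : Group.IsSolvable U := by haveI := hX; infer_instance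
    obtain ⟨x, hxc, hxv⟩ := S.exists_fixed_rep (H := H) le_top hVU.le (hn V hV U) (hn V hV ⊤)
      (Nat.Coprime.coprime_dvd_right (Subgroup.card_dvd_of_le hUN) hH) hUsol (v := v) (by
        intro h hh
        exact hfix h hh)
    have h3 := S.equiv ⟨n, Subgroup.mem_top n⟩ x
    have h4 : BG3.cjHom (hn U hU ⊤) ⟨n, Subgroup.mem_top n⟩ x = x := by
      apply Subtype.ext
      change n * (x : X) * n⁻¹ = x
      rw [hnc x (hUN x.2) hxc, mul_assoc, mul_inv_cancel, mul_one]
    rw [h4, hxv] at h3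
    exact h3.symm

theorem zmod_two_ne {ℓ : ℕ} [hℓ : Fact ℓ.Prime] (h : Odd ℓ) : (2 : ZMod ℓ) ≠ 0 := by
  intro h0
  have h1 : ((2 : ℕ) : ZMod ℓ) = 0 := by exact_mod_cast h0
  rw [ZMod.natCast_eq_zero_iff] at h1
  have h2 := Nat.le_of_dvd (by norm_num) h1
  have h3 := hℓ.out.two_le
  have h4 : ℓ = 2 := by omega
  rw [h4] at h
  exact absurd h (by decide)

theorem nilN {Y : Type u} [Group Y] [Finite Y] (hY : Group.IsSolvable Y) (N : Subgroup Y) [hNn : N.Normal]
    (hodd : Odd (Nat.card N)) {a b : Y} (haa : a * a = 1) (hbb : b * b = 1) (hab : a * b = b * a)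
    (hYN : ∀ S : Subgroup Y, N ≤ S → a ∈ S → b ∈ S → S = ⊤)
    (h1 : ∀ x ∈ N, a * x = x * a → b * x = x * b → x = 1)
    (hc : ∀ s, s = a ∨ s = b ∨ s = a * b → ∀ x ∈ N, ∀ y ∈ N, s * x = x * s → s * y = y * s → x * y = y * x)
    {x y : Y} (hx : x ∈ N) (hy : y ∈ N) : x * y * x⁻¹ * y⁻¹ ∈ (Cfsg.fittingSubgroup N).map N.subtype := by
  classical
  -- degenerate cases
  have hcomm_case : (∀ x ∈ N, ∀ y ∈ N, x * y = y * x) →
      x * y * x⁻¹ * y⁻¹ ∈ (Cfsg.fittingSubgroup N).map N.subtype := by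
    intro h
    rw [h x hx y hy]
    have : y * x * x⁻¹ * y⁻¹ = 1 := by group
    rw [this]; exact one_mem _
  by_cases ha1 : a = 1
  · exact hcomm_case (fun x hx y hy => hc a (Or.inl rfl) x hx y hy (by rw [ha1]; simp) (by rw [ha1]; simp))
  by_cases hb1 : b = 1
  · exact hcomm_case (fun x hx y hy => hc b (Or.inr (Or.inl rfl)) x hx y hy (by rw [hb1]; simp) (by rw [hb1]; simp))
  by_cases hab1 : a = b
  · have hab2 : a * b = 1 := by rw [← hab1, haa]
    exact hcomm_case (fun x hx y hy => hc (a * b) (Or.inr (Or.inr rfl)) x hx y hy (by rw [hab2]; simp)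
      (by rw [hab2]; simp))
  by_contra hcon
  have hg : x * y * x⁻¹ * y⁻¹ ∈ N := N.mul_mem (N.mul_mem (N.mul_mem hx hy) (N.inv_mem hx)) (N.inv_mem hy)
  obtain ⟨ℓ, iℓ, V, iV, iM, iF, ρ, hρg, hirr, hℓN, hlift⟩ := exists_chief_rep' hY N hg hcon
  -- faithful image
  set e := HH.toEquiv (F := ZMod ℓ) ρ with he
  let f : Y →* e.range := e.rangeRestrict
  have hfs : Function.Surjective f := e.rangeRestrict_surjective
  haveI : Finite e.range := Finite.of_surjective f hfs
  have hcoe : ∀ g, HH.tautRep e.range (f g) = ρ g := fun _ => rfl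
  set τ := HH.tautRep e.range with hτ
  have hinj : Function.Injective τ := HH.tautRep_injective _
  have hirr' : ∀ W : Submodule (ZMod ℓ) V, (∀ x, ∀ w ∈ W, τ x w ∈ W) → W = ⊥ ∨ W = ⊤ :=
    fun W hW => hirr W (fun x w hw => hW (f x) w hw)
  have hcore := H62.ChiefRep.pCore_eq_bot τ hinj hirr'
  set N' := N.map f with hN'
  haveI hN'n : N'.Normal := hNn.map f hfs
  have hN'ne : N' ≠ ⊥ := by
    intro h0
    have h2 : f (x * y * x⁻¹ * y⁻¹) ∈ N' := ⟨_, hg, rfl⟩
    rw [h0, Subgroup.mem_bot] at h2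
    apply hρg
    rw [← hcoe, h2, map_one]
  have hN'odd : Odd (Nat.card N') := by
    obtain ⟨c, hc'⟩ := Subgroup.card_map_dvd N f
    rw [hc', Nat.odd_mul] at hodd
    exact hodd.1
  obtain ⟨M, hMn, hMN, hM1, hMmin⟩ := Solv.exists_minimal_normal N' hN'n hN'ne
  haveI := hMn
  have hHsol : Group.IsSolvable e.range := by haveI := hY; exact Group.isSolvable_of_surjective hfs
  obtain ⟨hMc, q, hq, hMq⟩ := Solv.minimal_normal_of_solvable M (by haveI := hHsol; infer_instance) hM1 hMmin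
  have hMcomm : ∀ x ∈ M, ∀ y ∈ M, x * y = y * x := fun x hx y hy => Solv.comm_of_isMulCommutative hMc hx hy
  have hqℓ : q ≠ ℓ := by
    rintro rfl
    apply hM1
    rw [← le_bot_iff, ← hcore]
    have hMp : IsPGroup q M := by
      rw [isPGroup_iff_pow_pow_eq_one]
      intro z
      refine ⟨1, ?_⟩
      apply Subtype.ext
      rw [pow_one]
      exact hMq z z.2
    exact le_sSup ⟨hMn, hMp⟩
  have hqodd : Odd q := by
    obtain ⟨z, hz⟩ := Subgroup.ne_bot_iff_exists_ne_one.1 hM1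
    have h3 : orderOf (z : e.range) = q := by
      haveI : Fact q.Prime := ⟨hq⟩
      apply orderOf_eq_prime (hMq z z.2)
      intro h4; exact hz (Subtype.ext h4)
    have h4 : q ∣ Nat.card N' := by
      rw [← h3, ← Subgroup.orderOf_mk (z : e.range) (hMN z.2)]
      exact orderOf_dvd_natCard _
    exact Odd.of_dvd_nat hN'odd h4
  have hℓodd : Odd ℓ := Odd.of_dvd_nat hodd hℓN
  set a' := f a with ha'
  set b' := f b with hb'
  have hcopf : (Nat.card (four haa hbb hab)).Coprime (Nat.card N) := four_coprime haa hbb hab hodd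
  have hNsol : Group.IsSolvable N := by haveI := hY; infer_instance
  -- lifting centralizers
  have hliftS : ∀ (A : Subgroup Y), A ≤ four haa hbb hab → ∀ h ∈ N', (∀ s ∈ A, f s * h = h * f s) →
      ∃ c ∈ N, (∀ s ∈ A, s * c = c * s) ∧ f c = h := by
    intro A hA h hh hfix
    obtain ⟨c, hc1, hc2⟩ := H62.ChiefRep.fixed_map f A N
      (Nat.Coprime.coprime_dvd_left (Subgroup.card_dvd_of_le hA) hcopf) (Or.inr hNsol) hh (by
        intro s hs
        rw [hfix s hs, mul_assoc, mul_inv_cancel, mul_one])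
    exact ⟨c, hc1.1, fun s hs => Subgroup.mem_centralizer_iff.1 hc1.2 s hs, hc2⟩
  -- powers of a single involution
  have hz : ∀ s : Y, s * s = 1 → ∀ t ∈ Subgroup.zpowers s, t = 1 ∨ t = s := by
    intro s hs t ht
    obtain ⟨k, rfl⟩ := ht
    rcases Int.even_or_odd' k with ⟨j, hj | hj⟩
    · left
      change s ^ k = 1
      rw [hj, zpow_mul, zpow_two, hs, one_zpow]
    · right
      change s ^ k = s
      rw [hj, zpow_add, zpow_mul, zpow_two, hs, one_zpow, zpow_one, one_mul]
  have hmem4 : ∀ s, (s = a ∨ s = b ∨ s = a * b) → s ∈ four haa hbb hab := fun s hs => Or.inr hs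
  have hlift1 : ∀ s, (s = a ∨ s = b ∨ s = a * b) → ∀ h ∈ N', f s * h = h * f s →
      ∃ c ∈ N, s * c = c * s ∧ f c = h := by
    intro s hs h hh hfix
    have hss := four_sq haa hbb hab (hmem4 s hs)
    obtain ⟨c, hc1, hc2, hc3⟩ := hliftS (Subgroup.zpowers s) (by
      rw [Subgroup.zpowers_le]; exact hmem4 s hs) h hh (by
        intro t ht
        rcases hz s hss t ht with rfl | rfl
        · rw [map_one, one_mul, mul_one]
        · exact hfix)
    exact ⟨c, hc1, hc2 s (Subgroup.mem_zpowers s), hc3⟩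
  have htrans : ∀ s', (s' = a' ∨ s' = b' ∨ s' = a' * b') → ∃ s, (s = a ∨ s = b ∨ s = a * b) ∧ f s = s' := by
    rintro s' (rfl | rfl | rfl)
    · exact ⟨a, Or.inl rfl, rfl⟩
    · exact ⟨b, Or.inr (Or.inl rfl), rfl⟩
    · exact ⟨a * b, Or.inr (Or.inr rfl), map_mul f a b⟩
  have hc' : ∀ s, s = a' ∨ s = b' ∨ s = a' * b' → ∀ x ∈ N', ∀ y ∈ N', s * x = x * s → s * y = y * s →
      x * y = y * x := by
    intro s' hs' x' hx' y' hy' hsx hsy
    obtain ⟨s, hs, rfl⟩ := htrans s' hs'
    obtain ⟨c, hcN, hcs, rfl⟩ := hlift1 s hs x' hx' hsx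
    obtain ⟨d, hdN, hds, rfl⟩ := hlift1 s hs y' hy' hsy
    rw [← map_mul, ← map_mul, hc s hs c hcN d hdN hcs hds]
  have hst : ∀ s, s = a' ∨ s = b' ∨ s = a' * b' → ∀ x ∈ N', s * x = x * s → ∀ m : V, τ s m = m → τ x m = m := by
    intro s' hs' x' hx' hsx m hm
    obtain ⟨s, hs, rfl⟩ := htrans s' hs'
    obtain ⟨c, hcN, hcs, rfl⟩ := hlift1 s hs x' hx' hsx
    have hss := four_sq haa hbb hab (hmem4 s hs)
    have hle : Subgroup.zpowers s ≤ four haa hbb hab := by
      rw [Subgroup.zpowers_le]; exact hmem4 s hs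
    exact hlift (Subgroup.zpowers s) (Nat.Coprime.coprime_dvd_left (Subgroup.card_dvd_of_le hle) hcopf) m (by
      intro t ht
      rcases hz s hss t ht with rfl | rfl
      · rw [map_one]; rfl
      · exact hm) c (by
      intro h hh hhc
      exact hc s hs c hcN h hh hcs (Subgroup.mem_centralizer_iff.1 hhc s (Subgroup.mem_zpowers s)))
  have hNa : ∀ z ∈ N, a * z * a⁻¹ ∈ N := fun z hz => hNn.conj_mem z hz a
  have hNb : ∀ z ∈ N, b * z * b⁻¹ ∈ N := fun z hz => hNn.conj_mem z hz b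
  have hgenmap : ∀ K : Subgroup Y, K ≤ N → K.Normal → K.map f ≤ Subgroup.closure
      {x | x ∈ K.map f ∧ (a' * x = x * a' ∨ b' * x = x * b' ∨ a' * b' * x = x * (a' * b'))} := by
    intro K hKN hKn
    have hKodd : Odd (Nat.card K) := Odd.of_dvd_nat hodd (Subgroup.card_dvd_of_le hKN)
    have h3 := gen haa hbb hab hKodd ha1 hb1 hab1 (fun z hz => hKn.conj_mem z hz a) (fun z hz => hKn.conj_mem z hz b)
    rw [Subgroup.map_le_iff_le_comap]
    refine h3.trans ?_
    rw [Subgroup.closure_le]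
    rintro z ⟨hzK, hz⟩
    change f z ∈ Subgroup.closure _
    apply Subgroup.subset_closure
    refine ⟨⟨z, hzK, rfl⟩, ?_⟩
    rcases hz with h | h | h
    · left; rw [ha', ← map_mul, ← map_mul, h]
    · right; left; rw [hb', ← map_mul, ← map_mul, h]
    · right; right; rw [ha', hb', ← map_mul, ← map_mul, ← map_mul, h]
  have hMmap : (M.comap f ⊓ N).map f = M := by
    apply le_antisymm
    · rintro _ ⟨z, hz, rfl⟩
      exact hz.1
    · intro m hm
      obtain ⟨z, hzN, rfl⟩ := hMN hm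
      exact ⟨z, ⟨hm, hzN⟩, rfl⟩
  have hgM := hgenmap (M.comap f ⊓ N) inf_le_right inferInstance
  rw [hMmap] at hgM
  have haa' : a' * a' = 1 := by rw [ha', ← map_mul, haa, map_one]
  have hbb' : b' * b' = 1 := by rw [hb', ← map_mul, hbb, map_one]
  have hab' : a' * b' = b' * a' := by rw [ha', hb', ← map_mul, hab, map_mul]
  rcases main (F := ZMod ℓ) (ρ := τ) (N := M) (a := a') (b := b') (X := N') (zmod_two_ne hℓodd) hMN hMcomm haa' hbb' hab'
    (fun n hn => hMn.conj_mem n hn a') (fun n hn => hMn.conj_mem n hn b') (fun x _ n hn => hMn.conj_mem n hn x)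
    (by
      intro n hn hna hnb
      obtain ⟨c, hcN, hcs, rfl⟩ := hliftS (four haa hbb hab) le_rfl n (hMN hn) (by
        rintro s (rfl | rfl | rfl | rfl)
        · rw [map_one, one_mul, mul_one]
        · exact hna
        · exact hnb
        · rw [map_mul]
          change a' * b' * n = n * (a' * b')
          rw [mul_assoc, hnb, ← mul_assoc, hna, mul_assoc])
      rw [h1 c hcN (hcs a (Or.inr (Or.inl rfl))) (hcs b (Or.inr (Or.inr (Or.inl rfl)))), map_one])
    (by
      intro n hn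
      refine ⟨q, ?_, hMq n hn⟩
      intro h0
      rw [ZMod.natCast_eq_zero_iff] at h0
      exact hqℓ ((Nat.prime_dvd_prime_iff_eq iℓ.out hq).1 h0).symm)
    (by
      intro n hn
      obtain ⟨j, hj⟩ := hqodd
      refine ⟨j + 1, ?_⟩
      have : 2 * (j + 1) = q + 1 := by omega
      rw [this, pow_succ, hMq n hn, one_mul])
    hc' hst (hgenmap N le_rfl hNn) hgM (by
      intro W hWx hWa hWb
      apply hirr'
      have h3 : ((stb τ W).comap f) = ⊤ := by
        apply hYN
        · intro z hz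
          refine ⟨fun w hw => hWx _ ⟨z, hz, rfl⟩ w hw, fun w hw => ?_⟩
          rw [← map_inv]
          exact hWx _ ⟨z⁻¹, N.inv_mem hz, rfl⟩ w hw
        · refine ⟨fun w hw => hWa w hw, fun w hw => ?_⟩
          rw [show (f a)⁻¹ = a' from inv_eq_of_mul_eq_one_left haa']
          exact hWa w hw
        · refine ⟨fun w hw => hWb w hw, fun w hw => ?_⟩
          rw [show (f b)⁻¹ = b' from inv_eq_of_mul_eq_one_left hbb']
          exact hWb w hw
      intro z
      obtain ⟨z, rfl⟩ := hfs z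
      have h4 : z ∈ ((stb τ W).comap f) := by rw [h3]; trivial
      exact h4.1) with h3 | ⟨s, hs, hs1⟩
  · apply hM1
    rw [eq_bot_iff]
    intro n hn
    rw [Subgroup.mem_bot]
    apply hinj
    rw [h3 n hn, map_one]
  · have hsx : ∀ z ∈ N', s * z = z * s := by
      intro z _
      apply hinj
      rw [map_mul, map_mul, hs1]
      simp
    apply hρg
    rw [← hcoe]
    have h4 : f x * f y = f y * f x :=
      hc' s hs (f x) ⟨x, hx, rfl⟩ (f y) ⟨y, hy, rfl⟩ (hsx _ ⟨x, hx, rfl⟩) (hsx _ ⟨y, hy, rfl⟩)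
    have h5 : f (x * y * x⁻¹ * y⁻¹) = 1 := by
      rw [map_mul, map_mul, map_mul, h4, map_inv, map_inv]; group
    rw [h5, map_one]

theorem fitting_map_le {A B : Type u} [Group A] [Group B] (f : A ≃* B) :
    (Cfsg.fittingSubgroup A).map f.toMonoidHom ≤ Cfsg.fittingSubgroup B := by
  rw [Subgroup.map_le_iff_le_comap]
  apply sSup_le
  rintro N ⟨hn, hnil⟩
  rw [← Subgroup.map_le_iff_le_comap]
  apply le_sSup
  exact ⟨hn.map _ f.surjective, Group.nilpotent_of_mulEquiv (N.equivMapOfInjective f.toMonoidHom f.injective)⟩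

/-- **NIL**: the derived group of an odd order group with a four-group of operators having trivial fixed points and
abelian fixed points of involutions is contained in the Fitting subgroup. -/
theorem nil {G : Type u} [Group G] [Finite G] {a b : G} (ha : a * a = 1) (hb : b * b = 1) (hab : a * b = b * a)
    {X : Subgroup G} (hX : Odd (Nat.card X)) (hXa : ∀ x ∈ X, a * x * a⁻¹ ∈ X) (hXb : ∀ x ∈ X, b * x * b⁻¹ ∈ X)
    (h1 : ∀ x ∈ X, a * x = x * a → b * x = x * b → x = 1)
    (hc : ∀ s, s = a ∨ s = b ∨ s = a * b → ∀ x ∈ X, ∀ y ∈ X, s * x = x * s → s * y = y * s → x * y = y * x) :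
    ∀ x ∈ X, ∀ y ∈ X, x * y * x⁻¹ * y⁻¹ ∈ (Cfsg.fittingSubgroup X).map X.subtype := by
  intro x hx y hy
  have hXs : ∀ s ∈ four ha hb hab, ∀ x ∈ X, s * x * s⁻¹ ∈ X := by
    rintro s (rfl | rfl | rfl | rfl) x hx
    · simpa using hx
    · exact hXa x hx
    · exact hXb x hx
    · have := hXa _ (hXb x hx)
      have e : a * (b * x * b⁻¹) * a⁻¹ = a * b * x * (a * b)⁻¹ := by group
      rwa [e] at this
  have hnorm : four ha hb hab ≤ Subgroup.normalizer (X : Set G) := by
    intro s hs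
    rw [Subgroup.mem_normalizer_iff]
    intro x
    refine ⟨hXs s hs x, fun h => ?_⟩
    have := hXs s⁻¹ (inv_mem hs) _ h
    have e : s⁻¹ * (s * x * s⁻¹) * s⁻¹⁻¹ = x := by group
    rwa [e] at this
  set Y : Subgroup G := X ⊔ four ha hb hab with hY
  have hXY : X ≤ Y := le_sup_left
  have h4Y : four ha hb hab ≤ Y := le_sup_right
  have haY : a ∈ Y := h4Y (Or.inr (Or.inl rfl))
  have hbY : b ∈ Y := h4Y (Or.inr (Or.inr (Or.inl rfl)))
  haveI := four_comm ha hb hab
  have hYsol : Group.IsSolvable Y :=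
    SigF.solvable_sup (FT.solvable_of_odd hX) (Group.isSolvable_of_comm (fun a b => mul_comm' a b)) hnorm
  set N : Subgroup Y := X.subgroupOf Y with hN
  haveI hNn : N.Normal :=
    (Subgroup.normal_subgroupOf_iff_le_normalizer hXY).2 (sup_le Subgroup.le_normalizer hnorm)
  have hNX : ∀ z : Y, z ∈ N ↔ (z : G) ∈ X := fun z => Subgroup.mem_subgroupOf
  let ε : N ≃* X := Subgroup.subgroupOfEquivOfLe hXY
  have hNodd : Odd (Nat.card N) := by rw [Nat.card_congr ε.toEquiv]; exact hX
  have h2 := nilN hYsol N hNodd (a := ⟨a, haY⟩) (b := ⟨b, hbY⟩) (Subtype.ext ha) (Subtype.ext hb) (Subtype.ext hab)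
    (by
      intro S hNS haS hbS
      rw [eq_top_iff]
      have h3 : Y ≤ S.map Y.subtype := by
        refine sup_le ?_ ?_
        · intro z hz
          exact ⟨⟨z, hXY hz⟩, hNS ((hNX _).2 hz), rfl⟩
        · have ha4 : a ∈ S.map Y.subtype := ⟨_, haS, rfl⟩
          have hb4 : b ∈ S.map Y.subtype := ⟨_, hbS, rfl⟩
          rintro s (rfl | rfl | rfl | rfl)
          · exact one_mem _
          · exact ha4
          · exact hb4
          · exact mul_mem ha4 hb4
      intro z _
      obtain ⟨w, hw, hwz⟩ := h3 z.2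
      have : w = z := Subtype.ext hwz
      rw [← this]; exact hw)
    (by
      intro z hz hza hzb
      apply Subtype.ext
      exact h1 z ((hNX z).1 hz) (congrArg Subtype.val hza) (congrArg Subtype.val hzb))
    (by
      intro s hs z hz w hw hsz hsw
      apply Subtype.ext
      apply hc (s : G) ?_ z ((hNX z).1 hz) w ((hNX w).1 hw) (congrArg Subtype.val hsz) (congrArg Subtype.val hsw)
      rcases hs with rfl | rfl | rfl
      · exact Or.inl rfl
      · exact Or.inr (Or.inl rfl)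
      · exact Or.inr (Or.inr rfl))
    (x := ⟨x, hXY hx⟩) (y := ⟨y, hXY hy⟩) ((hNX _).2 hx) ((hNX _).2 hy)
  obtain ⟨w, hw, hwe⟩ := h2
  have h3 : (ε w : G) = x * y * x⁻¹ * y⁻¹ := by
    have h4 : ((w : Y) : G) = x * y * x⁻¹ * y⁻¹ := congrArg Subtype.val hwe
    rw [← h4]; rfl
  rw [← h3]
  exact ⟨ε w, fitting_map_le ε ⟨w, hw, rfl⟩, rfl⟩

end Cfsg.Agent.H22N
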